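import Cfsg.Prelude.Def_AxialAlgebras

/-! Pairs of commuting axes in the real setting. -/

set_option autoImplicit false

namespace Cfsg.Agent.Majorana

open Cfsg.Axial

variable {V : Type*} [AddCommGroup V] [Module ℝ V] {mul : V →ₗ[ℝ] V →ₗ[ℝ] V}
  {B : LinearMap.BilinForm ℝ V}

theorem mem_eigen {a v : V} {c : ℝ} : v ∈ eigen mul a c ↔ mul a v = c • v :=
  Module.End.mem_eigenspace_iff

theorem eigenSum_pair (a : V) (s t : ℝ) : eigenSum mul a {s, t} = eigen mul a s ⊔ eigen mul a t := by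
  rw [eigenSum, iSup_insert, iSup_singleton]

theorem eigenSum_single (a : V) (s : ℝ) : eigenSum mul a {s} = eigen mul a s := by
  rw [eigenSum, iSup_singleton]

theorem quarter_eq_zero {a w : V} (hw : w ∈ eigenSum mul a {1, 0}) (hq : mul a w = (1 / 4 : ℝ) • w) :
    w = 0 := by
  rw [eigenSum_pair] at hw
  obtain ⟨x, hx, y, hy, rfl⟩ := Submodule.mem_sup.1 hw
  rw [mem_eigen] at hx hy
  have h1 : mul a (x + y) = x := by rw [map_add, hx, hy, one_smul, zero_smul, add_zero]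
  have h2 : mul a x = x := by rw [hx, one_smul]
  rw [hq] at h1
  rw [← h1, map_smul, hq] at h2
  rw [smul_smul, ← sub_eq_zero, ← sub_smul] at h2
  exact (smul_eq_zero.1 h2).resolve_left (by norm_num)

theorem law_quarter : monsterLaw (1 / 4 : ℝ) (1 / 32) (1 / 4) (1 / 4) = {1, 0} := by
  simp [monsterLaw]

theorem law_zero_quarter : monsterLaw (1 / 4 : ℝ) (1 / 32) 0 (1 / 4) = {1 / 4} := by
  simp [monsterLaw]

theorem quarter_mul {μ : V ≃ₗ[ℝ] V} {a : V} (h : IsMajoranaPair mul B μ a) {u v : V}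
    (hu : mul a u = (1 / 4 : ℝ) • u) (hv : mul a v = (1 / 4 : ℝ) • v) :
    mul u v ∈ eigenSum mul a {1, 0} := by
  have := h.2.2.1.1.2.2.2 (1 / 4) (by simp [majoranaSpectrum]) (1 / 4) (by simp [majoranaSpectrum]) u
    (mem_eigen.2 hu) v (mem_eigen.2 hv)
  rwa [law_quarter] at this

theorem zero_quarter_mul {μ : V ≃ₗ[ℝ] V} {a : V} (h : IsMajoranaPair mul B μ a) {u v : V}
    (hu : mul a u = 0) (hv : mul a v = (1 / 4 : ℝ) • v) :
    mul a (mul u v) = (1 / 4 : ℝ) • mul u v := by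
  have := h.2.2.1.1.2.2.2 0 (by simp [majoranaSpectrum]) (1 / 4) (by simp [majoranaSpectrum]) u
    (mem_eigen.2 (by rw [hu, zero_smul])) v (mem_eigen.2 hv)
  rwa [law_zero_quarter, eigenSum_single, mem_eigen] at this

/-- Three independent members are impossible. -/
theorem two_a_group [FiniteDimensional ℝ V] (hV : IsMajoranaAmbient mul B) (X : Subgroup (V ≃ₗ[ℝ] V))
    (hX : ∀ x ∈ X, x * x = 1) (ax : (V ≃ₗ[ℝ] V) → V)
    (hax : ∀ x ∈ X, x ≠ 1 → IsMajoranaPair mul B x (ax x)) (h1 : ∀ x ∈ X, x ≠ 1 → B (ax x) (ax x) = 1)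
    (h2A : ∀ x ∈ X, ∀ y ∈ X, x ≠ 1 → y ≠ 1 → x ≠ y →
      mul (ax x) (ax y) = (1 / 8 : ℝ) • (ax x + ax y - ax (x * y))) : Nat.card X ≤ 4 := by
  classical
  by_contra hcard
  push_neg at hcard
  haveI : Finite X := Nat.finite_of_card_ne_zero (by omega)
  have hcomm : ∀ x ∈ X, ∀ y ∈ X, x * y = y * x := by
    intro x hx y hy
    have hinv : ∀ z ∈ X, z⁻¹ = z := fun z hz => inv_eq_of_mul_eq_one_left (hX z hz)
    rw [← hinv _ (mul_mem hx hy), mul_inv_rev, hinv x hx, hinv y hy]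
  have hpick : ∀ S : Finset (V ≃ₗ[ℝ] V), S.card ≤ 4 → ∃ z ∈ X, z ∉ S := by
    intro S hS
    by_contra hc
    push_neg at hc
    have : Nat.card X ≤ S.card := by
      rw [← Nat.card_eq_finsetCard]
      exact Nat.card_le_card_of_injective (fun x : X => (⟨x.1, hc x.1 x.2⟩ : ↥S))
        (fun a b e => Subtype.ext (congrArg Subtype.val e :))
    omega
  obtain ⟨x, hx, hx1⟩ := hpick {1} (by simp)
  rw [Finset.mem_singleton] at hx1
  obtain ⟨y, hy, hy'⟩ := hpick {1, x} (le_trans Finset.card_le_two (by norm_num))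
  simp only [Finset.mem_insert, Finset.mem_singleton, not_or] at hy'
  obtain ⟨hy1, hyx⟩ := hy'
  obtain ⟨z, hz, hz'⟩ := hpick {1, x, y, x * y} Finset.card_le_four
  simp only [Finset.mem_insert, Finset.mem_singleton, not_or] at hz'
  obtain ⟨hz1, hzx, hzy, hzxy⟩ := hz'
  have hxx := hX x hx
  have hyy := hX y hy
  have hzz := hX z hz
  have hxy : x * y ∈ X := mul_mem hx hy
  have hxz : x * z ∈ X := mul_mem hx hz
  have hyz : y * z ∈ X := mul_mem hy hz
  have hxyz : x * (y * z) ∈ X := mul_mem hx hyz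
  have cancel : ∀ {a b : V ≃ₗ[ℝ] V}, a * a = 1 → a * b = 1 → b = a := fun {a b} ha hab =>
    mul_left_cancel (hab.trans ha.symm)
  have n1 : x * y ≠ 1 := fun e => hyx (cancel hxx e)
  have n2 : x * z ≠ 1 := fun e => hzx (cancel hxx e)
  have n3 : y * z ≠ 1 := fun e => hzy (cancel hyy e)
  have n4 : x * (y * z) ≠ 1 := fun e => hzxy (by
    have h := cancel hxx e
    calc z = y * (y * z) := by rw [← mul_assoc, hyy, one_mul]
      _ = y * x := by rw [h]
      _ = x * y := hcomm y hy x hx)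
  have eig : ∀ w ∈ X, w ≠ 1 → w ≠ x →
      mul (ax x) (ax w - ax (x * w)) = (1 / 4 : ℝ) • (ax w - ax (x * w)) := by
    intro w hw hw1 hwx
    have m1 : x * w ≠ 1 := fun e => hwx (cancel hxx e)
    have m2 : x ≠ x * w := fun e => hw1 (mul_eq_left.1 e.symm)
    rw [map_sub, h2A x hx w hw hx1 hw1 (Ne.symm hwx), h2A x hx _ (mul_mem hx hw) hx1 m1 m2,
      ← mul_assoc, hxx, one_mul]
    module
  have hu := eig y hy hy1 hyx
  have hv := eig z hz hz1 hzx
  have hmem := quarter_mul (hax x hx hx1) hu hv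
  have d1 : y ≠ x * z := fun e => hzxy (by rw [e, ← mul_assoc, hxx, one_mul])
  have d2 : x * y ≠ z := fun e => hzxy e.symm
  have d3 : x * y ≠ x * z := fun e => hzy (mul_left_cancel e).symm
  have p1 : y * (x * z) = x * (y * z) := by rw [← mul_assoc, hcomm y hy x hx, mul_assoc]
  have p2 : x * y * z = x * (y * z) := mul_assoc _ _ _
  have p3 : x * y * (x * z) = y * z := by
    rw [mul_assoc, p1, ← mul_assoc, hxx, one_mul]
  have hprod : mul (ax y - ax (x * y)) (ax z - ax (x * z)) =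
      (1 / 4 : ℝ) • (ax (x * (y * z)) - ax (y * z)) := by
    rw [map_sub, map_sub, LinearMap.sub_apply, LinearMap.sub_apply,
      h2A y hy z hz hy1 hz1 (Ne.symm hzy), h2A y hy _ hxz hy1 n2 d1,
      h2A _ hxy z hz n1 hz1 d2, h2A _ hxy _ hxz n1 n2 d3, p1, p2, p3]
    module
  have hw := eig (y * z) hyz n3 (fun e => n4 (by rw [e, hxx]))
  have hzero : mul (ax y - ax (x * y)) (ax z - ax (x * z)) = 0 := by
    refine quarter_eq_zero hmem ?_
    rw [hprod, map_smul, ← neg_sub (ax (y * z)), map_neg, hw]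
    module
  rw [hprod, smul_eq_zero] at hzero
  have heq : ax (x * (y * z)) = ax (y * z) := sub_eq_zero.1 (hzero.resolve_left (by norm_num))
  have hne : x * (y * z) ≠ y * z := fun e => hx1 (mul_eq_right.1 e)
  have hidem : mul (ax (y * z)) (ax (y * z)) = ax (y * z) := (hax _ hyz n3).2.2.1.1.2.1
  have h := h2A _ hxyz _ hyz n4 n3 hne
  rw [heq, hidem, show x * (y * z) * (y * z) = x by rw [mul_assoc, hX _ hyz, mul_one]] at h
  have h' : ax x = (-6 : ℝ) • ax (y * z) := by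
    linear_combination (norm := module) (8 : ℝ) • h
  have e1 := h1 x hx hx1
  rw [h'] at e1
  simp only [map_smul, LinearMap.smul_apply, smul_eq_mul, h1 _ hyz n3] at e1
  norm_num at e1

/-- Automorphisms carry pairs to pairs. -/
theorem IsMajoranaPair_transport {μ φ : V ≃ₗ[ℝ] V} {a : V} (h : IsMajoranaPair mul B μ a)
    (hφ : ∀ u v : V, φ (mul u v) = mul (φ u) (φ v)) (hc : φ * μ = μ * φ) :
    IsMajoranaPair mul B μ (φ a) := by
  obtain ⟨hμm, hμB, ⟨⟨ha0, haa, htop, hfus⟩, hprim⟩, hfix, hneg⟩ := h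
  have heig : ∀ c, eigen mul (φ a) c = (eigen mul a c).map (φ : V →ₗ[ℝ] V) := by
    intro c
    ext v
    rw [Submodule.mem_map]
    simp only [mem_eigen]
    constructor
    · intro hv
      refine ⟨φ.symm v, ?_, φ.apply_symm_apply v⟩
      apply φ.injective
      rw [hφ, φ.apply_symm_apply, map_smul, φ.apply_symm_apply, hv]
    · rintro ⟨w, hw, rfl⟩
      show mul (φ a) (φ w) = c • φ w
      rw [← hφ, hw, map_smul]
  have hsum : ∀ S, eigenSum mul (φ a) S = (eigenSum mul a S).map (φ : V →ₗ[ℝ] V) := by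
    intro S
    simp only [eigenSum, heig, Submodule.map_iSup]
  have hμφ : ∀ v, μ (φ v) = φ (μ v) := fun v => (LinearEquiv.congr_fun hc v).symm
  refine ⟨hμm, hμB, ⟨⟨fun e => ha0 (φ.map_eq_zero_iff.1 e), by rw [← hφ, haa], ?_, ?_⟩, ?_⟩, ?_, ?_⟩
  · rw [hsum, htop, Submodule.map_top, LinearMap.range_eq_top]
    exact φ.surjective
  · intro c hcS d hdS u hu v hv
    rw [heig] at hu hv
    obtain ⟨u', hu', rfl⟩ := Submodule.mem_map.1 hu
    obtain ⟨v', hv', rfl⟩ := Submodule.mem_map.1 hv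
    rw [hsum]
    exact Submodule.mem_map.2 ⟨_, hfus c hcS d hdS u' hu' v' hv', hφ u' v'⟩
  · rw [heig, hprim, Submodule.map_span, Set.image_singleton]
    rfl
  · intro v hv
    rw [hsum] at hv
    obtain ⟨w, hw, rfl⟩ := Submodule.mem_map.1 hv
    show μ (φ w) = φ w
    rw [hμφ, show μ w = w from hfix w hw]
  · intro v hv
    rw [heig] at hv
    obtain ⟨w, hw, rfl⟩ := Submodule.mem_map.1 hv
    show μ (φ w) = -φ w
    rw [hμφ, show μ w = -w from hneg w hw, map_neg]

theorem decompose {μ : V ≃ₗ[ℝ] V} {a v : V} (h : IsMajoranaPair mul B μ a) (hv : μ v = v) :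
    ∃ (t : ℝ) (z q : V), mul a z = 0 ∧ mul a q = (1 / 4 : ℝ) • q ∧ v = t • a + z + q := by
  obtain ⟨-, -, ⟨⟨-, haa, htop, -⟩, hprim⟩, hfix, hneg⟩ := h
  have hmem : v ∈ eigenSum mul a majoranaSpectrum := htop ▸ Submodule.mem_top
  rw [eigenSum, majoranaSpectrum, iSup_insert, iSup_insert, iSup_insert, iSup_singleton] at hmem
  obtain ⟨x, hx, w, hw, rfl⟩ := Submodule.mem_sup.1 hmem
  obtain ⟨z, hz, w', hw', rfl⟩ := Submodule.mem_sup.1 hw
  obtain ⟨q, hq, r, hr, rfl⟩ := Submodule.mem_sup.1 hw'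
  have hin : ∀ (c : ℝ) (u : V), c ∈ ({1, 0, 1 / 4} : Set ℝ) → u ∈ eigen mul a c → μ u = u :=
    fun c u hc hu => hfix u (Submodule.mem_iSup_of_mem c (Submodule.mem_iSup_of_mem hc hu))
  rw [map_add, map_add, map_add, hin 1 x (by simp) hx, hin 0 z (by simp) hz, hin (1 / 4) q (by simp) hq,
    show μ r = -r from hneg r hr] at hv
  have hr0 : r = 0 := by
    have : (2 : ℝ) • r = 0 := by linear_combination (norm := module) -hv
    exact (smul_eq_zero.1 this).resolve_left (by norm_num)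
  rw [hprim] at hx
  obtain ⟨t, rfl⟩ := Submodule.mem_span_singleton.1 hx
  rw [mem_eigen] at hz hq
  exact ⟨t, z, q, by rw [hz, zero_smul], hq, by rw [hr0]; abel⟩

theorem two_axes [FiniteDimensional ℝ V] (hV : IsMajoranaAmbient mul B) (μ₀ μ₁ : V ≃ₗ[ℝ] V) (a₀ a₁ : V)
    (h₀ : IsMajoranaPair mul B μ₀ a₀) (h₁ : IsMajoranaPair mul B μ₁ a₁)
    (hu₀ : ∀ a : V, IsMajoranaPair mul B μ₀ a → a = a₀)
    (hu₁ : ∀ a : V, IsMajoranaPair mul B μ₁ a → a = a₁)
    (hn₀ : B a₀ a₀ = 1) (hn₁ : B a₁ a₁ = 1) (hc : μ₀ * μ₁ = μ₁ * μ₀) (hne : a₀ ≠ a₁) :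
    (B a₀ a₁ = 0 ∧ mul a₀ a₁ = 0) ∨
      (B a₀ a₁ = 1 / 8 ∧
        mul (a₀ + a₁ - (8 : ℝ) • mul a₀ a₁) (a₀ + a₁ - (8 : ℝ) • mul a₀ a₁) =
          a₀ + a₁ - (8 : ℝ) • mul a₀ a₁ ∧
        mul a₀ (a₀ + a₁ - (8 : ℝ) • mul a₀ a₁) =
          (1 / 8 : ℝ) • (a₀ + (a₀ + a₁ - (8 : ℝ) • mul a₀ a₁) - a₁) ∧
        mul a₁ (a₀ + a₁ - (8 : ℝ) • mul a₀ a₁) =
          (1 / 8 : ℝ) • (a₁ + (a₀ + a₁ - (8 : ℝ) • mul a₀ a₁) - a₀)) := by
  obtain ⟨hcm, hsym, hpos, hass, -⟩ := hV
  have hf1 : μ₀ a₁ = a₁ := hu₁ _ (IsMajoranaPair_transport h₁ h₀.1 hc)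
  have hf0 : μ₁ a₀ = a₀ := hu₀ _ (IsMajoranaPair_transport h₀ h₁.1 hc.symm)
  obtain ⟨t, z, q, hz, hq, ha1⟩ := decompose h₀ hf1
  obtain ⟨t', z', q', hz', hq', ha0⟩ := decompose h₁ hf0
  have i0 : mul a₀ a₀ = a₀ := h₀.2.2.1.1.2.1
  have i1 : mul a₁ a₁ = a₁ := h₁.2.2.1.1.2.1
  have orth0 : ∀ (u : V) (c : ℝ), c ≠ 1 → mul a₀ u = c • u → B a₀ u = 0 := by
    intro u c hc1 hu
    have := hass a₀ a₀ u
    rw [hu, i0, map_smul, smul_eq_mul] at this
    have h' : (c - 1) * B a₀ u = 0 := by linarith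
    exact (mul_eq_zero.1 h').resolve_left (sub_ne_zero.2 hc1)
  have orth1 : ∀ (u : V) (c : ℝ), c ≠ 1 → mul a₁ u = c • u → B a₁ u = 0 := by
    intro u c hc1 hu
    have := hass a₁ a₁ u
    rw [hu, i1, map_smul, smul_eq_mul] at this
    have h' : (c - 1) * B a₁ u = 0 := by linarith
    exact (mul_eq_zero.1 h').resolve_left (sub_ne_zero.2 hc1)
  have bz : B a₀ z = 0 := orth0 z 0 (by norm_num) (by rw [hz, zero_smul])
  have bq : B a₀ q = 0 := orth0 q (1 / 4) (by norm_num) hq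
  have bt : B a₀ a₁ = t := by
    rw [ha1, map_add, map_add, map_smul, hn₀, bz, bq]; simp
  have bt' : B a₁ a₀ = t' := by
    rw [ha0, map_add, map_add, map_smul, hn₁, orth1 z' 0 (by norm_num) (by rw [hz', zero_smul]),
      orth1 q' (1 / 4) (by norm_num) hq']
    simp
  have htt : t' = t := by rw [← bt', ← bt, hsym]
  have hp : mul a₀ a₁ = t • a₀ + (1 / 4 : ℝ) • q := by
    rw [ha1, map_add, map_add, map_smul, i0, hz, hq, add_zero]
  by_cases hq0 : q = 0
  · subst hq0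
    rw [smul_zero, add_zero] at hp
    have hsq : t * t = t := by
      have e := hass a₀ a₁ a₁
      rw [i1, hp, map_smul, LinearMap.smul_apply, smul_eq_mul, bt] at e
      exact e.symm
    rcases mul_eq_zero.1 (show t * (t - 1) = 0 by rw [mul_sub, hsq]; ring) with h0 | h1
    · exact Or.inl ⟨bt.trans h0, by rw [hp, h0, zero_smul]⟩
    · exfalso
      have h1' : t = 1 := by linarith
      have hz0 : z = 0 := by
        by_contra hzne
        have hp' := hpos z hzne
        have e : B a₁ a₁ = t * t + B z z := by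
          rw [ha1, add_zero]
          simp only [map_add, map_smul, LinearMap.add_apply, LinearMap.smul_apply, smul_eq_mul, hn₀,
            hsym z a₀, bz]
          ring
        rw [hn₁, h1'] at e
        linarith
      exact hne (by rw [ha1, h1', one_smul, hz0, add_zero, add_zero])
  refine Or.inr ?_
  have hp' : mul a₁ a₀ = t • a₁ + (1 / 4 : ℝ) • q' := by
    rw [ha0, map_add, map_add, map_smul, i1, hz', hq', add_zero, htt]
  have hq'e : q' = q + (4 * t) • a₀ - (4 * t) • a₁ := by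
    have e := (hcm a₀ a₁).symm.trans hp
    rw [hp'] at e
    linear_combination (norm := module) (4 : ℝ) • e
  have ha1q : mul a₁ q = (1 / 4 : ℝ) • q + t • a₀ + (3 * t) • a₁ - (4 * t) • mul a₀ a₁ := by
    have e := hq'
    rw [hq'e, map_sub, map_add, map_smul, map_smul, i1, hcm a₁ a₀] at e
    linear_combination (norm := module) e
  have hqq := quarter_mul h₀ hq hq
  have hzq := zero_quarter_mul h₀ hz hq
  have hexp : mul a₁ q = (t / 4) • q + mul z q + mul q q := by
    rw [ha1]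
    simp only [map_add, map_smul, LinearMap.add_apply, LinearMap.smul_apply]
    rw [hq]
    module
  -- the idempotent equation fixes `z q`
  have hidem : t • a₀ + z + q =
      (t * t) • a₀ + mul z z + mul q q + ((t / 2) • q + (2 : ℝ) • mul z q) := by
    have e := i1
    rw [ha1] at e
    simp only [map_add, map_smul, LinearMap.add_apply, LinearMap.smul_apply] at e
    rw [hcm z a₀, hcm q a₀, hcm q z, i0, hz, hq] at e
    linear_combination (norm := module) -e
  have hzz : mul z z ∈ eigenSum mul a₀ {1, 0} := by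
    have := h₀.2.2.1.1.2.2.2 0 (by simp [majoranaSpectrum]) 0 (by simp [majoranaSpectrum]) z
      (mem_eigen.2 (by rw [hz, zero_smul])) z (mem_eigen.2 (by rw [hz, zero_smul]))
    have hlaw : monsterLaw (1 / 4 : ℝ) (1 / 32) 0 0 = {0} := by simp [monsterLaw]
    rw [hlaw, eigenSum_single] at this
    rw [eigenSum_pair]
    exact Submodule.mem_sup_right this
  have ma0 : a₀ ∈ eigenSum mul a₀ {1, 0} := by
    rw [eigenSum_pair]; exact Submodule.mem_sup_left (mem_eigen.2 (by rw [i0, one_smul]))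
  have mz : z ∈ eigenSum mul a₀ {1, 0} := by
    rw [eigenSum_pair]; exact Submodule.mem_sup_right (mem_eigen.2 (by rw [hz, zero_smul]))
  have ezq : (2 : ℝ) • mul z q = (1 - t / 2) • q := by
    rw [← sub_eq_zero]
    refine quarter_eq_zero (mul := mul) (a := a₀) ?_ ?_
    · rw [show (2 : ℝ) • mul z q - (1 - t / 2) • q =
        t • a₀ + z - ((t * t) • a₀ + mul z z + mul q q) by linear_combination (norm := module) -hidem]
      exact sub_mem (add_mem (Submodule.smul_mem _ _ ma0) mz)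
        (add_mem (add_mem (Submodule.smul_mem _ _ ma0) hzz) hqq)
    · rw [map_sub, map_smul, map_smul, hzq, hq]
      module
  have ht : t = 1 / 8 := by
    have hw : (1 / 4 - 2 * t : ℝ) • q = 0 := by
      refine quarter_eq_zero (mul := mul) (a := a₀) ?_ ?_
      · rw [show (1 / 4 - 2 * t : ℝ) • q = (t - t * t) • a₀ + (3 * t) • z - mul q q by
          rw [hexp] at ha1q
          rw [hp, ha1] at ha1q
          linear_combination (norm := module) ha1q - (1 / 2 : ℝ) • ezq]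
        exact sub_mem (add_mem (Submodule.smul_mem _ _ ma0) (Submodule.smul_mem _ _ mz)) hqq
      · rw [map_smul, hq]; module
    have := (smul_eq_zero.1 hw).resolve_right hq0
    linarith
  subst ht
  have hqsq : mul q q = mul a₁ q - (1 / 2 : ℝ) • q := by
    linear_combination (norm := module) -hexp - (1 / 2 : ℝ) • ezq
  have ha2 : a₀ + a₁ - (8 : ℝ) • mul a₀ a₁ = a₁ - (2 : ℝ) • q := by rw [hp]; module
  rw [ha2]
  refine ⟨bt, ?_, ?_, ?_⟩
  · simp only [map_sub, map_smul, LinearMap.sub_apply, LinearMap.smul_apply]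
    rw [i1, hcm q a₁, hqsq]
    module
  · rw [map_sub, map_smul, hp, hq]
    module
  · rw [map_sub, map_smul, i1, ha1q, hp]
    module

end Cfsg.Agent.Majorana
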