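import Cfsg.Prelude.Def_AxialAlgebras
import Cfsg.Agent.Majorana.TwoAxes

/-! Local computations at one axis in the dihedral setting of Sakuma's theorem. -/

set_option autoImplicit false

namespace Cfsg.Agent.Majorana.Sakuma

open Cfsg.Axial

variable {V : Type*} [AddCommGroup V] [Module ℝ V] {mul : V →ₗ[ℝ] V →ₗ[ℝ] V}
  {B : LinearMap.BilinForm ℝ V}

/-- The correction `a b - (a + b)/32` of a product. -/
noncomputable def sig (mul : V →ₗ[ℝ] V →ₗ[ℝ] V) (a b : V) : V :=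
  mul a b - (1 / 32 : ℝ) • a - (1 / 32 : ℝ) • b

theorem mul_eq_sig (a b : V) :
    mul a b = sig mul a b + (1 / 32 : ℝ) • a + (1 / 32 : ℝ) • b := by
  rw [sig]; abel

theorem eigen_split {μ : V ≃ₗ[ℝ] V} {a : V} (h : IsMajoranaPair mul B μ a) (v : V) :
    ∃ x r : V, μ x = x ∧ μ r = -r ∧ mul a r = (1 / 32 : ℝ) • r ∧ v = x + r := by
  obtain ⟨-, -, ⟨⟨-, -, htop, -⟩, -⟩, hfix, hneg⟩ := h
  have hmem : v ∈ eigenSum mul a majoranaSpectrum := htop ▸ Submodule.mem_top
  rw [eigenSum, majoranaSpectrum, iSup_insert, iSup_insert, iSup_insert, iSup_singleton] at hmem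
  obtain ⟨x, hx, w, hw, rfl⟩ := Submodule.mem_sup.1 hmem
  obtain ⟨z, hz, w', hw', rfl⟩ := Submodule.mem_sup.1 hw
  obtain ⟨q, hq, r, hr, rfl⟩ := Submodule.mem_sup.1 hw'
  have hin : ∀ (c : ℝ) (u : V), c ∈ ({1, 0, 1 / 4} : Set ℝ) → u ∈ eigen mul a c → μ u = u :=
    fun c u hc hu => hfix u (Submodule.mem_iSup_of_mem c (Submodule.mem_iSup_of_mem hc hu))
  refine ⟨x + z + q, r, ?_, hneg r hr, mem_eigen.1 hr, by abel⟩
  rw [map_add, map_add, hin 1 x (by simp) hx, hin 0 z (by simp) hz, hin (1 / 4) q (by simp) hq]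

theorem neg_part {μ : V ≃ₗ[ℝ] V} {a d : V} (h : IsMajoranaPair mul B μ a) (hd : μ d = -d) :
    mul a d = (1 / 32 : ℝ) • d := by
  obtain ⟨x, r, hx, hr, har, rfl⟩ := eigen_split h d
  rw [map_add, hx, hr] at hd
  have h2 : (2 : ℝ) • x = 0 := by linear_combination (norm := module) hd
  have hx0 : x = 0 := (smul_eq_zero.1 h2).resolve_left (by norm_num)
  rw [hx0, zero_add, har]

theorem invol {μ : V ≃ₗ[ℝ] V} {a : V} (h : IsMajoranaPair mul B μ a) : μ * μ = 1 := by
  apply LinearEquiv.ext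
  intro v
  obtain ⟨x, r, hx, hr, -, rfl⟩ := eigen_split h v
  show μ (μ (x + r)) = x + r
  rw [map_add, hx, hr, map_add, hx, map_neg, hr, neg_neg]

theorem unique_map {μ ν : V ≃ₗ[ℝ] V} {a : V} (h : IsMajoranaPair mul B μ a)
    (h' : IsMajoranaPair mul B ν a) : μ = ν := by
  obtain ⟨-, -, ⟨⟨-, -, htop, -⟩, -⟩, hfix, hneg⟩ := h
  obtain ⟨-, -, -, hfix', hneg'⟩ := h'
  apply LinearEquiv.ext
  intro v
  have hmem : v ∈ eigenSum mul a majoranaSpectrum := htop ▸ Submodule.mem_top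
  rw [eigenSum, majoranaSpectrum, iSup_insert, iSup_insert, iSup_insert, iSup_singleton] at hmem
  obtain ⟨x, hx, w, hw, rfl⟩ := Submodule.mem_sup.1 hmem
  obtain ⟨z, hz, w', hw', rfl⟩ := Submodule.mem_sup.1 hw
  obtain ⟨q, hq, r, hr, rfl⟩ := Submodule.mem_sup.1 hw'
  have hin : ∀ (c : ℝ) (u : V), c ∈ ({1, 0, 1 / 4} : Set ℝ) → u ∈ eigen mul a c → μ u = ν u :=
    fun c u hc hu =>
      have hm := Submodule.mem_iSup_of_mem (p := fun d => ⨆ _ : d ∈ ({1, 0, 1 / 4} : Set ℝ), eigen mul a d)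
        c (Submodule.mem_iSup_of_mem hc hu)
      (hfix u hm).trans (hfix' u hm).symm
  simp only [map_add]
  rw [hin 1 x (by simp) hx, hin 0 z (by simp) hz, hin (1 / 4) q (by simp) hq,
    show μ r = -r from hneg r hr, show ν r = -r from hneg' r hr]

theorem transport {μ ν φ : V ≃ₗ[ℝ] V} {a : V} (h : IsMajoranaPair mul B μ a)
    (hφ : ∀ u v : V, φ (mul u v) = mul (φ u) (φ v)) (hν : ∀ u v : V, ν (mul u v) = mul (ν u) (ν v))
    (hνB : ∀ u v : V, B (ν u) (ν v) = B u v) (hc : φ * μ = ν * φ) :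
    IsMajoranaPair mul B ν (φ a) := by
  obtain ⟨-, -, ⟨⟨ha0, haa, htop, hfus⟩, hprim⟩, hfix, hneg⟩ := h
  have heig : ∀ c, eigen mul (φ a) c = (eigen mul a c).map (φ : V →ₗ[ℝ] V) := by
    intro c
    ext v
    rw [Submodule.mem_map]
    simp only [mem_eigen]
    constructor
    · intro hv
      refine ⟨φ.symm v, ?_, φ.apply_symm_apply v⟩
      apply φ.injective
      rw [hφ, φ.apply_symm_apply, map_smul, φ.apply_symm_apply, hv]
    · rintro ⟨w, hw, rfl⟩
      show mul (φ a) (φ w) = c • φ w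
      rw [← hφ, hw, map_smul]
  have hsum : ∀ S, eigenSum mul (φ a) S = (eigenSum mul a S).map (φ : V →ₗ[ℝ] V) := by
    intro S
    simp only [eigenSum, heig, Submodule.map_iSup]
  have hνφ : ∀ v, ν (φ v) = φ (μ v) := fun v => (LinearEquiv.congr_fun hc v).symm
  refine ⟨hν, hνB, ⟨⟨fun e => ha0 (φ.map_eq_zero_iff.1 e), by rw [← hφ, haa], ?_, ?_⟩, ?_⟩, ?_, ?_⟩
  · rw [hsum, htop, Submodule.map_top, LinearMap.range_eq_top]
    exact φ.surjective
  · intro c hcS d hdS u hu v hv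
    rw [heig] at hu hv
    obtain ⟨u', hu', rfl⟩ := Submodule.mem_map.1 hu
    obtain ⟨v', hv', rfl⟩ := Submodule.mem_map.1 hv
    rw [hsum]
    exact Submodule.mem_map.2 ⟨_, hfus c hcS d hdS u' hu' v' hv', hφ u' v'⟩
  · rw [heig, hprim, Submodule.map_span, Set.image_singleton]
    rfl
  · intro v hv
    rw [hsum] at hv
    obtain ⟨w, hw, rfl⟩ := Submodule.mem_map.1 hv
    show ν (φ w) = φ w
    rw [hνφ, show μ w = w from hfix w hw]
  · intro v hv
    rw [heig] at hv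
    obtain ⟨w, hw, rfl⟩ := Submodule.mem_map.1 hv
    show ν (φ w) = -φ w
    rw [hνφ, show μ w = -w from hneg w hw, map_neg]

theorem law_zero : monsterLaw (1 / 4 : ℝ) (1 / 32) 0 0 = {0} := by
  simp [monsterLaw]

theorem zero_mul_zero {μ : V ≃ₗ[ℝ] V} {a : V} (h : IsMajoranaPair mul B μ a) {u v : V}
    (hu : mul a u = 0) (hv : mul a v = 0) : mul a (mul u v) = 0 := by
  have := h.2.2.1.1.2.2.2 0 (by simp [majoranaSpectrum]) 0 (by simp [majoranaSpectrum]) u
    (mem_eigen.2 (by rw [hu, zero_smul])) v (mem_eigen.2 (by rw [hv, zero_smul]))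
  rwa [law_zero, eigenSum_single, mem_eigen, zero_smul] at this

theorem orth (hV : IsMajoranaAmbient mul B) {a u : V} {c : ℝ} (ha : mul a a = a) (hc : c ≠ 1)
    (hu : mul a u = c • u) : B a u = 0 := by
  have := hV.2.2.2.1 a a u
  rw [hu, ha, map_smul, smul_eq_mul] at this
  have h' : (c - 1) * B a u = 0 := by linarith
  exact (mul_eq_zero.1 h').resolve_left (sub_ne_zero.2 hc)

theorem quarter_sq (hV : IsMajoranaAmbient mul B) {μ : V ≃ₗ[ℝ] V} {a w : V}
    (h : IsMajoranaPair mul B μ a) (hn : B a a = 1) (hw : mul a w = (1 / 4 : ℝ) • w) :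
    mul a (mul w w) = ((1 / 4 : ℝ) * B w w) • a := by
  have haa : mul a a = a := h.2.2.1.1.2.1
  have hm := quarter_mul h hw hw
  rw [eigenSum_pair] at hm
  obtain ⟨x, hx, y, hy, hxy⟩ := Submodule.mem_sup.1 hm
  rw [h.2.2.1.2] at hx
  obtain ⟨t, rfl⟩ := Submodule.mem_span_singleton.1 hx
  rw [mem_eigen, zero_smul] at hy
  have hy0 : B a y = 0 := orth hV haa (c := 0) (by norm_num) (by rw [hy, zero_smul])
  have ht : t = 1 / 4 * B w w := by
    have e := hV.2.2.2.1 a w w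
    rw [hw, map_smul, LinearMap.smul_apply, smul_eq_mul] at e
    rw [← hxy, map_add, map_smul, smul_eq_mul, hn, hy0] at e
    linarith
  rw [← hxy, map_add, map_smul, haa, hy, add_zero, ht]

/-- The value `a · sig a b`. -/
theorem local_one (hV : IsMajoranaAmbient mul B) {μ : V ≃ₗ[ℝ] V} {a b b' : V} {lam : ℝ}
    (h : IsMajoranaPair mul B μ a) (hn : B a a = 1) (hb : μ b = b') (hlam : B a b = lam) :
    μ b' = b ∧ mul a b' = sig mul a b + (1 / 32 : ℝ) • a + (1 / 32 : ℝ) • b' ∧ B a b' = lam ∧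
    mul a (sig mul a b) = (7 / 32 : ℝ) • sig mul a b + (3 / 4 * lam - 25 / 1024) • a +
      (7 / 2048 : ℝ) • b + (7 / 2048 : ℝ) • b' := by
  have haa : mul a a = a := h.2.2.1.1.2.1
  have hbb : μ b' = b := by
    rw [← hb]; exact LinearEquiv.congr_fun (invol h) b
  have hd : mul a (b - b') = (1 / 32 : ℝ) • (b - b') :=
    neg_part h (by rw [map_sub, hb, hbb, neg_sub])
  obtain ⟨t, z, w, hz, hw, hs⟩ :=
    decompose h (v := (1 / 2 : ℝ) • (b + b')) (by rw [map_smul, map_add, hb, hbb, add_comm b b'])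
  have hb1 : b = t • a + z + w + (1 / 2 : ℝ) • (b - b') := by
    linear_combination (norm := module) hs
  have hb2 : b' = t • a + z + w - (1 / 2 : ℝ) • (b - b') := by
    linear_combination (norm := module) hs
  have bz : B a z = 0 := orth hV haa (c := 0) (by norm_num) (by rw [hz, zero_smul])
  have bw : B a w = 0 := orth hV haa (by norm_num) hw
  have bd : B a (b - b') = 0 := orth hV haa (by norm_num) hd
  have ht : t = lam := by
    rw [← hlam]
    conv_rhs => rw [hb1]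
    simp only [map_add, map_smul, smul_eq_mul, hn, bz, bw, bd]
    ring
  subst ht
  have e1 : mul a b = t • a + (1 / 4 : ℝ) • w + (1 / 64 : ℝ) • (b - b') := by
    conv_lhs => rw [hb1]
    simp only [map_add, map_smul, haa, hz, hw, hd]
    module
  have e2 : mul a b' = t • a + (1 / 4 : ℝ) • w - (1 / 64 : ℝ) • (b - b') := by
    conv_lhs => rw [hb2]
    simp only [map_add, map_sub, map_smul, haa, hz, hw]
    rw [← map_sub, hd]
    module
  refine ⟨hbb, ?_, ?_, ?_⟩
  · rw [e2, sig, e1]; module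
  · rw [map_sub] at bd; linarith
  · have e3 : mul a (mul a b) = t • a + (1 / 16 : ℝ) • w + (1 / 2048 : ℝ) • (b - b') := by
      rw [e1]
      simp only [map_add, map_smul, haa, hw, hd]
      module
    rw [sig, map_sub, map_sub, map_smul, map_smul, e3, haa, e1]
    module

end Cfsg.Agent.Majorana.Sakuma
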