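import Cfsg.Agent.Majorana.SakumaResurrect

/-! Sakuma's theorem: two Majorana involutions have a product of order at most six. -/

set_option autoImplicit false

namespace Cfsg.Agent.Majorana.Sakuma

open Cfsg.Axial

variable {V : Type*} [AddCommGroup V] [Module ℝ V] {mul : V →ₗ[ℝ] V →ₗ[ℝ] V}
  {B : LinearMap.BilinForm ℝ V}

theorem eq_of_inner_one (hV : IsMajoranaAmbient mul B) {x y : V} (hx : B x x = 1) (hy : B y y = 1)
    (h : B x y = 1) : y = x := by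
  by_contra hne
  have hpos := hV.2.2.1 (y - x) (sub_ne_zero.2 hne)
  simp only [map_sub, LinearMap.sub_apply, hx, hy, hV.2.1 y x, h] at hpos
  linarith

theorem inner_nonneg (hV : IsMajoranaAmbient mul B) {x y : V} (hx : mul x x = x) (hy : mul y y = y) :
    0 ≤ B x y := by
  have h := hV.2.2.2.2 x y
  rw [hx, hy] at h
  rcases eq_or_ne (mul x y) 0 with h0 | h0
  · rw [h0] at h; simpa using h
  · exact le_trans (hV.2.2.1 _ h0).le h

theorem values_of_eqs {lam p : ℝ}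
    (f0 : (124392 / 49 : ℝ) * lam * p + (70656 / 49 : ℝ) * lam * p ^ 2 + (-216 / 7 : ℝ) * lam + (-1195008 / 49 : ℝ) * lam ^ 2 * p + (-92160 / 7 : ℝ) * lam ^ 2 + (19660800 / 49 : ℝ) * lam ^ 3 * p + (33103872 / 49 : ℝ) * lam ^ 3 + (-453771264 / 49 : ℝ) * lam ^ 4 + (402653184 / 49 : ℝ) * lam ^ 5 + (-8703 / 196 : ℝ) * p + (2088 / 49 : ℝ) * p ^ 2 + (351 / 196 : ℝ) = 0)
    (f1 : (-3336 / 7 : ℝ) * lam * p + (1800 / 7 : ℝ) * lam + (-15360 / 7 : ℝ) * lam ^ 2 * p + (-69120 / 7 : ℝ) * lam ^ 2 + (872448 / 7 : ℝ) * lam ^ 3 + (-786432 / 7 : ℝ) * lam ^ 4 + (501 / 56 : ℝ) * p + (-48 / 7 : ℝ) * p ^ 2 + (-117 / 56 : ℝ) = 0) :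
    (lam = 1 ∧ p = 1) ∨ (lam = 0 ∧ p = 1) ∨ (lam = 1 / 8 ∧ p = 1) ∨
    (lam = 1 / 64 ∧ p = 1 / 64) ∨ (lam = 13 / 256 ∧ p = 13 / 256) ∨
    (lam = 1 / 32 ∧ p = 0) ∨ (lam = 1 / 64 ∧ p = 1 / 8) ∨
    (lam = 3 / 128 ∧ p = 3 / 128) ∨ (lam = 5 / 256 ∧ p = 13 / 256) := by
  have N : lam * (64 * lam - 1) * (64 * lam - 1) * (256 * lam - 5) * (128 * lam - 3) * (32 * lam - 1) *
      (256 * lam - 13) * (8 * lam - 1) * (lam - 1) = 0 := by
    linear_combination ((-2401 / 9331200 : ℝ) * ((-9022026240 / 16807 : ℝ) * lam * p + (7866736200 / 16807 : ℝ) * lam + (436537589760 / 16807 : ℝ) * lam ^ 2 * p + (-1015675200000 / 16807 : ℝ) * lam ^ 2 + (23268698357760 / 16807 : ℝ) * lam ^ 3 * p + (37243395440640 / 16807 : ℝ) * lam ^ 3 + (10001905090560 / 16807 : ℝ) * lam ^ 4 * p + (-462652660776960 / 16807 : ℝ) * lam ^ 4 + (8848207081635840 / 16807 : ℝ) * lam ^ 5 + (222651104624640 / 16807 : ℝ) * lam ^ 6 + (-54966600 / 16807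 : ℝ) * p + (9240075 / 67228 : ℝ))) * f1 + ((-2401 / 9331200 : ℝ) * ((-164643840 / 2401 : ℝ) * lam * p + (254307600 / 2401 : ℝ) * lam + (318504960 / 49 : ℝ) * lam ^ 2 * p + (-34518182400 / 2401 : ℝ) * lam ^ 2 + (6794772480 / 2401 : ℝ) * lam ^ 3 * p + (952409456640 / 2401 : ℝ) * lam ^ 3 + (1042997575680 / 343 : ℝ) * lam ^ 4 + (434865438720 / 2401 : ℝ) * lam ^ 5 + (-1263600 / 2401 : ℝ) * p + (3080025 / 19208 : ℝ))) * f0
  simp only [mul_eq_zero] at N
  rcases N with (((((((h | h) | h) | h) | h) | h) | h) | h) | h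
  · subst h
    norm_num at f0 f1
    exact Or.inr (Or.inl ⟨rfl, by linarith⟩)
  · obtain rfl : lam = 1 / 64 := by linarith
    norm_num at f0 f1
    have h2 : (p - 1 / 64) * (p - 1 / 8) = 0 := by linarith
    rcases mul_eq_zero.1 h2 with h3 | h3
    · exact Or.inr (Or.inr (Or.inr (Or.inl ⟨rfl, by linarith⟩)))
    · exact Or.inr (Or.inr (Or.inr (Or.inr (Or.inr (Or.inr (Or.inl ⟨rfl, by linarith⟩))))))
  · obtain rfl : lam = 1 / 64 := by linarith
    norm_num at f0 f1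
    have h2 : (p - 1 / 64) * (p - 1 / 8) = 0 := by linarith
    rcases mul_eq_zero.1 h2 with h3 | h3
    · exact Or.inr (Or.inr (Or.inr (Or.inl ⟨rfl, by linarith⟩)))
    · exact Or.inr (Or.inr (Or.inr (Or.inr (Or.inr (Or.inr (Or.inl ⟨rfl, by linarith⟩))))))
  · obtain rfl : lam = 5 / 256 := by linarith
    norm_num at f0 f1
    exact Or.inr (Or.inr (Or.inr (Or.inr (Or.inr (Or.inr (Or.inr (Or.inr ⟨rfl, by linarith⟩)))))))
  · obtain rfl : lam = 3 / 128 := by linarith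
    norm_num at f0 f1
    exact Or.inr (Or.inr (Or.inr (Or.inr (Or.inr (Or.inr (Or.inr (Or.inl ⟨rfl, by linarith⟩)))))))
  · obtain rfl : lam = 1 / 32 := by linarith
    norm_num at f0 f1
    exact Or.inr (Or.inr (Or.inr (Or.inr (Or.inr (Or.inl ⟨rfl, by linarith⟩)))))
  · obtain rfl : lam = 13 / 256 := by linarith
    norm_num at f0 f1
    exact Or.inr (Or.inr (Or.inr (Or.inr (Or.inl ⟨rfl, by linarith⟩))))
  · obtain rfl : lam = 1 / 8 := by linarith
    norm_num at f0 f1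
    exact Or.inr (Or.inr (Or.inl ⟨rfl, by linarith⟩))
  · obtain rfl : lam = 1 := by linarith
    norm_num at f0 f1
    exact Or.inl ⟨rfl, by linarith⟩

set_option maxHeartbeats 3200000 in
/-- An orbit of axes closed under all the reflections has period at most six. -/
theorem period_le_six (hV : IsMajoranaAmbient mul B) (nu : ℤ → (V ≃ₗ[ℝ] V)) (a : ℤ → V)
    (hp : ∀ i, IsMajoranaPair mul B (nu i) (a i)) (hn : ∀ i, B (a i) (a i) = 1)
    (href : ∀ i j, nu i (a j) = a (2 * i - j)) :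
    ∃ N : ℕ, 1 ≤ N ∧ N ≤ 6 ∧ a N = a 0 := by
  obtain ⟨hcomm, hsym, -, -, -⟩ := id hV
  have idem : ∀ i, mul (a i) (a i) = a i := fun i => (hp i).2.2.1.1.2.1
  have hB : ∀ k i j, B (a (2 * k - i)) (a (2 * k - j)) = B (a i) (a j) := by
    intro k i j
    rw [← href, ← href, (hp k).2.1]
  have hshift : ∀ k i j, B (a (i + 2 * k)) (a (j + 2 * k)) = B (a i) (a j) := by
    intro k i j
    have h1 := hB 0 i j
    have h2 := hB k (2 * 0 - i) (2 * 0 - j)
    rw [h1] at h2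
    rw [← h2]; congr 2 <;> ring_nf
  -- the symmetric nature of `sig`
  have sig_comm : ∀ x y : V, sig mul x y = sig mul y x := by
    intro x y; rw [sig, sig, hcomm x y]; abel
  have sig_step : ∀ i d, sig mul (a i) (a (i + d)) = sig mul (a (i - d)) (a i) := by
    intro i d
    have h := (local_one hV (hp i) (hn i) (b := a (i + d)) (b' := a (i - d))
      (by rw [href]; congr 1; ring) rfl).2.1
    rw [sig_comm (a (i - d)) (a i), sig, sig, h, sig]
    abel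
  set S : V := sig mul (a 0) (a 1) with hSdef
  have hS : ∀ i : ℤ, sig mul (a i) (a (i + 1)) = S := by
    intro i
    induction i using Int.induction_on with
    | zero => rfl
    | succ n ih => rw [sig_step ((n : ℤ) + 1) 1, ← ih]; congr 2; ring
    | pred n ih => rw [← ih, sig_step (-(n : ℤ)) 1]; congr 2; ring
  set lam : ℝ := B (a 0) (a 1) with hlamdef
  have hl : ∀ i : ℤ, B (a i) (a (i + 1)) = lam := by
    intro i
    rcases Int.even_or_odd' i with ⟨k, rfl | rfl⟩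
    · have := hshift k 0 1
      rw [hlamdef, ← this]; congr 2 <;> ring_nf
    · have h1 := hshift (k + 1) (-1) 0
      have h2 := hB 0 0 1
      norm_num at h2
      rw [hlamdef, ← h2, hsym (a 0), ← h1]; congr 2 <;> ring_nf
  have bS : ∀ i : ℤ, mul (a i) S = (7 / 32 : ℝ) • S + (3 / 4 * lam - 25 / 1024) • a i +
      (7 / 2048 : ℝ) • a (i + 1) + (7 / 2048 : ℝ) • a (i - 1) := by
    intro i
    have h := (local_one hV (hp i) (hn i) (b := a (i + 1)) (b' := a (i - 1))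
      (by rw [href]; congr 1; ring) (hl i)).2.2.2
    rwa [hS] at h
  set p : ℝ := B (a 0) (a 2) with hpdef
  set q : ℝ := B (a 1) (a (-1)) with hqdef
  have step : ∀ i p' q', B (a i) (a (i + 2)) = p' → B (a (i + 1)) (a (i - 1)) = q' →
      B (a i) (sig mul (a (i + 1)) (a (i - 1))) = (31 * lam - 1) / 32 + (q' - lam) / 32 ∧
      mul (a i) (sig mul (a (i + 1)) (a (i - 1))) =
        (-127 / 3072 + 5 / 3 * lam - 32 / 3 * lam ^ 2 - q' / 24) • a i +
        (-19 / 48 + 32 / 3 * lam) • S + (-19 / 3072 + lam / 6) • a (i + 1) +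
        (-19 / 3072 + lam / 6) • a (i - 1) + (7 / 96 : ℝ) • sig mul (a i) (a (i + 2)) +
        (7 / 6144 : ℝ) • a (i + 2) + (7 / 6144 : ℝ) • a (i - 2) ∧
      mul S S =
        (-7 / 98304 - 7 / 384 * lam + 7 / 6 * lam ^ 2 + 7 / 1536 * q') • a i +
        (-13 / 1536 - 5 / 12 * lam) • S + (-245 / 196608 + 49 / 768 * lam) • a (i + 1) +
        (-245 / 196608 + 49 / 768 * lam) • a (i - 1) +
        (-7 / 1536 : ℝ) • sig mul (a i) (a (i + 2)) + (49 / 196608 : ℝ) • a (i + 2) +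
        (49 / 196608 : ℝ) • a (i - 2) + (7 / 2048 : ℝ) • sig mul (a (i + 1)) (a (i - 1)) := by
    intro i p' q' hp' hq'
    have h := local_two hV (hp i) (hn i) (b := a (i + 1)) (b' := a (i - 1)) (c := a (i + 2))
      (c' := a (i - 2)) (by rw [href]; congr 1; ring) (by rw [href]; congr 1; ring) (hl i) hp' hq'
      (hn _) (hn _) (idem _) (idem _)
      (by rw [hS, bS (i + 1), show i + 1 + 1 = i + 2 by ring, show i + 1 - 1 = i by ring]; abel)
      (by rw [hS, bS (i - 1), show i - 1 + 1 = i by ring, show i - 1 - 1 = i - 2 by ring])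
    rwa [hS] at h
  set T0 : V := sig mul (a 0) (a 2) with hT0
  set T1 : V := sig mul (a 1) (a (-1)) with hT1
  have t13 : sig mul (a 1) (a 3) = T1 := by
    rw [hT1, sig_comm (a 1) (a (-1)), show (3 : ℤ) = 1 + 2 by norm_num, sig_step 1 2]
    norm_num
  have t24 : sig mul (a 2) (a 4) = T0 := by
    rw [hT0, show (4 : ℤ) = 2 + 2 by norm_num, sig_step 2 2]; norm_num
  have t35 : sig mul (a 3) (a 5) = T1 := by
    rw [← t13, show (5 : ℤ) = 3 + 2 by norm_num, sig_step 3 2]; norm_num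
  have t20 : sig mul (a 2) (a 0) = T0 := by rw [hT0, sig_comm]
  have t31 : sig mul (a 3) (a 1) = T1 := by rw [← t13, sig_comm]
  have t42 : sig mul (a 4) (a 2) = T0 := by rw [← t24, sig_comm]
  have q13 : B (a 1) (a 3) = q := by
    rw [hqdef, ← hB 1 1 (-1)]; norm_num
  have p20 : B (a 2) (a 0) = p := by rw [hpdef, hsym]
  have p24 : B (a 2) (a 4) = p := by
    rw [hpdef, ← hshift 1 0 2]; norm_num
  have q31 : B (a 3) (a 1) = q := by rw [← q13, hsym]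
  have q35 : B (a 3) (a 5) = q := by
    rw [← q13, ← hshift 1 1 3]; norm_num
  have p42 : B (a 4) (a 2) = p := by rw [← p24, hsym]
  obtain ⟨v0, A0, F0⟩ := step 0 p q (by rw [hpdef]; norm_num) (by rw [hqdef]; norm_num)
  obtain ⟨v1, -, F1⟩ := step 1 q p (by simpa using q13) (by simpa using p20)
  obtain ⟨-, -, F2⟩ := step 2 p q (by simpa using p24) (by simpa using q31)
  obtain ⟨-, A3, F3⟩ := step 3 q p (by simpa using q35) (by simpa using p42)
  norm_num only at v0 A0 F0 v1 F1 F2 A3 F3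
  rw [← hT1] at v0
  simp only [← hT0, ← hT1, t13, t24, t35, t20, t31, t42] at A0 F0 v1 F1 F2 A3 F3
  have G01 := F0.symm.trans F1
  have G02 := F0.symm.trans F2
  have G13 := F1.symm.trans F3
  have G23 := F2.symm.trans F3
  -- values of the form
  have hf : ∀ k i j i' j' : ℤ, i' = 2 * k - i → j' = 2 * k - j → B (a i') (a j') = B (a i) (a j) := by
    rintro k i j _ _ rfl rfl; exact hB k i j
  have l01 : B (a 0) (a 1) = lam := rfl
  have l0m : B (a 0) (a (-1)) = lam := (hf 0 0 1 _ _ rfl rfl).trans l01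
  have l12 : B (a 1) (a 2) = lam := hl 1
  have l10 : B (a 1) (a 0) = lam := by rw [hsym]
  have p0m : B (a 0) (a (-2)) = p := hf 0 0 2 _ _ rfl rfl
  have vT00 : B (a 0) T0 = (31 * p - 1) / 32 := by
    rw [hT0, sig]
    simp only [map_sub, map_smul, smul_eq_mul, hV.2.2.2.1, idem, hn, ← hpdef]
    ring
  have vT11 : B (a 1) T1 = (31 * q - 1) / 32 := by
    rw [hT1, sig]
    simp only [map_sub, map_smul, smul_eq_mul, hV.2.2.2.1, idem, hn, ← hqdef]
    ring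
  set E3 : ℝ := B (a 0) (a 3) with hE3
  have e1m2 : B (a 1) (a (-2)) = E3 := by
    have h1 := hshift 1 1 (-2)
    norm_num at h1
    rw [← h1, hsym]
  have R0 := congrArg (B (a 0)) G01
  have R1 := congrArg (B (a 1)) G01
  simp only [map_add, map_smul, smul_eq_mul, hn, l01, l0m, p0m, ← hpdef, vT00, v0, ← hE3] at R0
  simp only [map_add, map_smul, smul_eq_mul, hn, l10, l12, q13, ← hqdef, vT11, v1, e1m2] at R1
  have hlam0 : 0 ≤ lam := inner_nonneg hV (idem 0) (idem 1)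
  have hpq : q = p := by
    have h : (q - p) * (1920 / 7 * lam + 303 / 7) = 0 := by
      linear_combination (196608 / 49 : ℝ) * R0 + (196608 / 49 : ℝ) * R1
    rcases mul_eq_zero.1 h with h | h
    · linarith
    · linarith
  clear R1
  have hE3v : E3 = (-1920 / 7 : ℝ) * lam * p + (-2169 / 7 : ℝ) * lam + (36864 / 7 : ℝ) * lam ^ 2 + (-32768 / 7 : ℝ) * lam ^ 3 + (-33 / 7 : ℝ) * p + (33 / 7 : ℝ) := by
    rw [hpq] at R0
    linear_combination (-196608 / 49 : ℝ) * R0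
  -- the recurrence
  set E4 : ℝ := B (a 0) (a 4) with hE4
  have hE4v : E4 = (-640 / 7 : ℝ) * lam * p + (-19840 / 7 : ℝ) * lam + (65536 : ℝ) * lam ^ 2 * p + (110592 : ℝ) * lam ^ 2 + (-9601024 / 7 : ℝ) * lam ^ 3 + (8388608 / 7 : ℝ) * lam ^ 4 + (-3 : ℝ) * p + (-128 / 7 : ℝ) * p ^ 2 + (156 / 7 : ℝ) := by
    have h := congrArg (B (a 0)) G02
    simp only [map_add, map_smul, smul_eq_mul, hn, l01, l0m, p0m, ← hpdef, vT00, v0, ← hE3, ← hE4,
      hpq, hE3v] at h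
    linear_combination (-196608 / 49 : ℝ) * h
  set O4 : ℝ := B (a 1) (a 5) with hO4
  have hO4v : O4 = (-640 / 7 : ℝ) * lam * p + (-19840 / 7 : ℝ) * lam + (65536 : ℝ) * lam ^ 2 * p + (110592 : ℝ) * lam ^ 2 + (-9601024 / 7 : ℝ) * lam ^ 3 + (8388608 / 7 : ℝ) * lam ^ 4 + (-3 : ℝ) * p + (-128 / 7 : ℝ) * p ^ 2 + (156 / 7 : ℝ) := by
    have h := congrArg (B (a 1)) G13
    have l14 : B (a 1) (a 4) = E3 := by
      have h1 := hf 2 0 3 4 1 (by norm_num) (by norm_num)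
      rw [hsym, h1]
    have q1m : B (a 1) (a (-1)) = q := rfl
    simp only [map_add, map_smul, smul_eq_mul, hn, l10, l12, q13, q1m, v1, vT11, l14, ← hO4, hpq,
      hE3v] at h
    linear_combination (-196608 / 49 : ℝ) * h
  set E5 : ℝ := B (a 0) (a 5) with hE5
  have hE5v : E5 = (259584 / 49 : ℝ) * lam * p + (475136 / 49 : ℝ) * lam * p ^ 2 + (-137721 / 7 : ℝ) * lam + (12582912 / 49 : ℝ) * lam ^ 2 * p + (8683520 / 7 : ℝ) * lam ^ 2 + (-754974720 / 49 : ℝ) * lam ^ 3 * p + (-1633419264 / 49 : ℝ) * lam ^ 3 + (16273899520 / 49 : ℝ) * lam ^ 4 + (-13958643712 / 49 : ℝ) * lam ^ 5 + (-5256 / 49 : ℝ) * p + (-256 / 49 : ℝ) * p ^ 2 + (5512 / 49 : ℝ) := by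
    have h := congrArg (B (a (-1))) G02
    have b0 : B (a (-1)) (a 0) = lam := by rw [hsym]; exact l0m
    have b1 : B (a (-1)) (a 1) = q := by rw [hsym]
    have b2 : B (a (-1)) (a 2) = E3 := by
      rw [hf 0 1 (-2) (-1) 2 (by norm_num) (by norm_num), e1m2]
    have b3 : B (a (-1)) (a 3) = O4 := by
      rw [hO4, ← hshift 1 (-1) 3]; norm_num
    have b4 : B (a (-1)) (a 4) = E5 := by
      rw [hE5, hsym, ← hshift (-2) 4 (-1)]
      exact (hf 0 0 5 _ _ (by norm_num) (by norm_num))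
    have bm : B (a (-1)) (a (-2)) = lam := by
      rw [hf 0 1 2 (-1) (-2) (by norm_num) (by norm_num), l12]
    simp only [map_add, map_smul, smul_eq_mul, hn, b0, b1, b2, b3, b4, bm, hpq, hE3v, hO4v] at h
    linear_combination (-196608 / 49 : ℝ) * h
  -- the product of the axes with indices 0 and 3
  have l34 : B (a 1) (a 4) = E3 := by
    rw [hsym, hf 2 0 3 4 1 (by norm_num) (by norm_num)]
  have X1 := congrArg (mul (a 0)) G01
  have X2 := congrArg (mul (a 3)) G23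
  have m01 : mul (a 0) (a 1) = S + (1 / 32 : ℝ) • a 0 + (1 / 32 : ℝ) • a 1 := by
    rw [mul_eq_sig (mul := mul) (a 0) (a 1)]
  have m0m : mul (a 0) (a (-1)) = S + (1 / 32 : ℝ) • a 0 + (1 / 32 : ℝ) • a (-1) := by
    rw [mul_eq_sig (mul := mul) (a 0) (a (-1)), sig_comm, ← hS (-1)]; norm_num
  have m02 : mul (a 0) (a 2) = T0 + (1 / 32 : ℝ) • a 0 + (1 / 32 : ℝ) • a 2 := by
    rw [mul_eq_sig (mul := mul) (a 0) (a 2)]
  have m0n : mul (a 0) (a (-2)) = T0 + (1 / 32 : ℝ) • a 0 + (1 / 32 : ℝ) • a (-2) := by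
    have h := sig_step 0 2
    norm_num at h
    rw [mul_eq_sig (mul := mul) (a 0) (a (-2)), sig_comm, ← h]
  have m34 : mul (a 3) (a 4) = S + (1 / 32 : ℝ) • a 3 + (1 / 32 : ℝ) • a 4 := by
    rw [mul_eq_sig (mul := mul) (a 3) (a 4), ← hS 3]; norm_num
  have m32 : mul (a 3) (a 2) = S + (1 / 32 : ℝ) • a 3 + (1 / 32 : ℝ) • a 2 := by
    rw [mul_eq_sig (mul := mul) (a 3) (a 2), sig_comm, ← hS 2]; norm_num
  have m35 : mul (a 3) (a 5) = T1 + (1 / 32 : ℝ) • a 3 + (1 / 32 : ℝ) • a 5 := by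
    rw [mul_eq_sig (mul := mul) (a 3) (a 5), t35]
  have m31 : mul (a 3) (a 1) = T1 + (1 / 32 : ℝ) • a 3 + (1 / 32 : ℝ) • a 1 := by
    rw [mul_eq_sig (mul := mul) (a 3) (a 1), t31]
  have bT0 : mul (a 0) T0 = (7 / 32 : ℝ) • T0 + (3 / 4 * p - 25 / 1024) • a 0 +
      (7 / 2048 : ℝ) • a 2 + (7 / 2048 : ℝ) • a (-2) :=
    (local_one hV (hp 0) (hn 0) (b := a 2) (b' := a (-2)) (by rw [href]; norm_num) rfl).2.2.2
  have bT3 : mul (a 3) T1 = (7 / 32 : ℝ) • T1 + (3 / 4 * q - 25 / 1024) • a 3 +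
      (7 / 2048 : ℝ) • a 5 + (7 / 2048 : ℝ) • a 1 := by
    have h := (local_one hV (hp 3) (hn 3) (b := a 5) (b' := a 1) (by rw [href]; norm_num) q35).2.2.2
    rwa [t35] at h
  have s0 := bS 0
  have s3 := bS 3
  norm_num only at s0 s3
  simp only [map_add, map_smul, idem, m01, m0m, m02, m0n, bT0, A0, s0] at X1
  simp only [map_add, map_smul, idem, m34, m32, m35, m31, bT3, A3, s3, hcomm (a 3) (a 0)] at X2
  have u05 : B (a 0) (a 5) = E5 := rfl
  have u15 : B (a 1) (a 5) = O4 := rfl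
  have u14 : B (a 1) (a 4) = E3 := l34
  have sv0 : B (a 0) S = 31 / 32 * lam - 1 / 32 := by
    rw [hSdef, sig]
    simp only [map_sub, map_smul, smul_eq_mul, hV.2.2.2.1, idem, hn, ← hlamdef]
    ring
  have sv1 : B (a 1) S = 31 / 32 * lam - 1 / 32 := by
    rw [hSdef, sig_comm, sig]
    simp only [map_sub, map_smul, smul_eq_mul, hV.2.2.2.1, idem, hn, l10]
    ring
  have Y0 := congrArg (B (a 0)) X1
  have Z0 := congrArg (B (a 0)) X2
  have Y1 := congrArg (B (a 1)) X1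
  have Z1 := congrArg (B (a 1)) X2
  simp only [map_add, map_smul, smul_eq_mul, hn, l01, l0m, p0m, ← hpdef, vT00, v0, sv0, ← hE3,
    ← hE4, u05, hpq, hE3v, hE4v, hE5v] at Y0 Z0
  have q1m : B (a 1) (a (-1)) = q := rfl
  simp only [map_add, map_smul, smul_eq_mul, hn, l10, l12, q13, q1m, v1, vT11, sv1, e1m2, u14, u15,
    hpq, hE3v, hO4v] at Y1 Z1
  have f0 : (124392 / 49 : ℝ) * lam * p + (70656 / 49 : ℝ) * lam * p ^ 2 + (-216 / 7 : ℝ) * lam + (-1195008 / 49 : ℝ) * lam ^ 2 * p + (-92160 / 7 : ℝ) * lam ^ 2 + (19660800 / 49 : ℝ) * lam ^ 3 * p + (33103872 / 49 : ℝ) * lam ^ 3 + (-453771264 / 49 : ℝ) * lam ^ 4 + (402653184 / 49 : ℝ) * lam ^ 5 + (-8703 / 196 : ℝ) * p + (2088 / 49 : ℝ) * p ^ 2 + (351 / 196 : ℝ) = 0 := by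
    linear_combination (-196608 / 49 : ℝ) * Y0 + (-196608 / 49 : ℝ) * Z0
  have f1 : (-3336 / 7 : ℝ) * lam * p + (1800 / 7 : ℝ) * lam + (-15360 / 7 : ℝ) * lam ^ 2 * p + (-69120 / 7 : ℝ) * lam ^ 2 + (872448 / 7 : ℝ) * lam ^ 3 + (-786432 / 7 : ℝ) * lam ^ 4 + (501 / 56 : ℝ) * p + (-48 / 7 : ℝ) * p ^ 2 + (-117 / 56 : ℝ) = 0 := by
    linear_combination (-196608 / 49 : ℝ) * Y1 + (-196608 / 49 : ℝ) * Z1
  have fin : ∀ N : ℕ, 1 ≤ N → N ≤ 6 → B (a 0) (a N) = 1 → ∃ N : ℕ, 1 ≤ N ∧ N ≤ 6 ∧ a N = a 0 :=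
    fun N h1 h2 h3 => ⟨N, h1, h2, eq_of_inner_one hV (hn 0) (hn N) h3⟩
  rcases values_of_eqs f0 f1 with ⟨e, e'⟩ | ⟨e, e'⟩ | ⟨e, e'⟩ | ⟨e, e'⟩ | ⟨e, e'⟩ | ⟨e, e'⟩ | ⟨e, e'⟩ |
      ⟨e, e'⟩ | ⟨e, e'⟩
  · exact fin 1 le_rfl (by norm_num) (by simpa using e)
  · exact fin 2 (by norm_num) (by norm_num) (by simpa using e')
  · exact fin 2 (by norm_num) (by norm_num) (by simpa using e')
  · exact fin 3 (by norm_num) (by norm_num)
      (show B (a 0) (a 3) = 1 by rw [← hE3, hE3v, e, e']; norm_num)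
  · exact fin 3 (by norm_num) (by norm_num)
      (show B (a 0) (a 3) = 1 by rw [← hE3, hE3v, e, e']; norm_num)
  · exact fin 4 (by norm_num) (by norm_num)
      (show B (a 0) (a 4) = 1 by rw [← hE4, hE4v, e, e']; norm_num)
  · exact fin 4 (by norm_num) (by norm_num)
      (show B (a 0) (a 4) = 1 by rw [← hE4, hE4v, e, e']; norm_num)
  · exact fin 5 (by norm_num) (by norm_num)
      (show B (a 0) (a 5) = 1 by rw [← hE5, hE5v, e, e']; norm_num)
  · have h := congrArg (B (a (-2))) G02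
    have c0 : B (a (-2)) (a 0) = p := by rw [hsym, p0m]
    have c1 : B (a (-2)) (a 1) = E3 := by rw [hsym, e1m2]
    have cm : B (a (-2)) (a (-1)) = lam := by
      rw [hf 0 2 1 (-2) (-1) (by norm_num) (by norm_num), hsym, l12]
    have c2 : B (a (-2)) (a 2) = E4 := by
      have h1 := hshift 1 (-2) 2
      norm_num at h1
      rw [← h1]
    have c3 : B (a (-2)) (a 3) = E5 := by
      have h1 := hshift 1 (-2) 3
      norm_num at h1
      rw [← h1]
    have c4 : B (a (-2)) (a 4) = B (a 0) (a 6) := by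
      have h1 := hshift 1 (-2) 4
      norm_num at h1
      rw [← h1]
    simp only [map_add, map_smul, smul_eq_mul, hn, c0, c1, cm, c2, c3, c4, hpq, hE3v, hE4v, hE5v,
      e, e'] at h
    refine fin 6 (by norm_num) le_rfl ?_
    push_cast
    linarith

theorem order_le_six (hV : IsMajoranaAmbient mul B) (μ₀ μ₁ : V ≃ₗ[ℝ] V) (a₀ a₁ : V)
    (h₀ : IsMajoranaPair mul B μ₀ a₀) (h₁ : IsMajoranaPair mul B μ₁ a₁)
    (hn₀ : B a₀ a₀ = 1) (hn₁ : B a₁ a₁ = 1) : ∃ n : ℕ, 1 ≤ n ∧ n ≤ 6 ∧ (μ₀ * μ₁) ^ n = 1 := by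
  set σ : V ≃ₗ[ℝ] V := μ₁ * μ₀ with hσ
  have m0 : μ₀ * μ₀ = 1 := invol h₀
  have m1 : μ₁ * μ₁ = 1 := invol h₁
  have hinv : σ⁻¹ = μ₀ * μ₁ := by
    apply inv_eq_of_mul_eq_one_right
    rw [hσ, mul_assoc, ← mul_assoc μ₀ μ₀, m0, one_mul, m1]
  have hsc : SemiconjBy μ₀ σ σ⁻¹ := by
    show μ₀ * σ = σ⁻¹ * μ₀
    rw [hinv, hσ, mul_assoc]
  have hflip : ∀ k : ℤ, μ₀ * σ ^ k = σ ^ (-k) * μ₀ := by
    intro k
    have := (hsc.zpow_right k).eq
    rwa [inv_zpow, ← zpow_neg] at this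
  let G : Subgroup (V ≃ₗ[ℝ] V) :=
    { carrier := {φ | (∀ u v, φ (mul u v) = mul (φ u) (φ v)) ∧ ∀ u v, B (φ u) (φ v) = B u v}
      one_mem' := ⟨fun _ _ => rfl, fun _ _ => rfl⟩
      mul_mem' := fun {f g} hf hg => ⟨fun u v => by
          show f (g (mul u v)) = mul (f (g u)) (f (g v))
          rw [hg.1, hf.1], fun u v => by
          show B (f (g u)) (f (g v)) = B u v
          rw [hf.2, hg.2]⟩
      inv_mem' := fun {f} hf => ⟨fun u v => by
          apply f.injective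
          show f (f.symm (mul u v)) = f (mul (f.symm u) (f.symm v))
          rw [hf.1]; simp, fun u v => by
          show B (f.symm u) (f.symm v) = B u v
          rw [← hf.2]; simp⟩ }
  have g0 : μ₀ ∈ G := ⟨h₀.1, h₀.2.1⟩
  have g1 : μ₁ ∈ G := ⟨h₁.1, h₁.2.1⟩
  have gσ : ∀ k : ℤ, σ ^ k ∈ G := fun k => G.zpow_mem (G.mul_mem g1 g0) k
  let nu : ℤ → (V ≃ₗ[ℝ] V) := fun j => σ ^ j * μ₀
  have gnu : ∀ j, nu j ∈ G := fun j => G.mul_mem (gσ j) g0
  let a : ℤ → V := fun j => if Even j then (σ ^ (j / 2)) a₀ else (σ ^ (j / 2)) a₁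
  have ae : ∀ k : ℤ, a (2 * k) = (σ ^ k) a₀ := by
    intro k; simp [a]
  have ao : ∀ k : ℤ, a (2 * k + 1) = (σ ^ k) a₁ := by
    intro k
    have h1 : ¬ Even (2 * k + 1) := Int.not_even_iff_odd.2 ⟨k, rfl⟩
    have h2 : (2 * k + 1) / 2 = k := by omega
    simp [a, h1, h2]
  have fix0 : μ₀ a₀ = a₀ := h₀.2.2.2.1 a₀ (Submodule.mem_iSup_of_mem 1
    (Submodule.mem_iSup_of_mem (by simp) (mem_eigen.2 (by rw [h₀.2.2.1.1.2.1, one_smul]))))
  have fix1 : μ₁ a₁ = a₁ := h₁.2.2.2.1 a₁ (Submodule.mem_iSup_of_mem 1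
    (Submodule.mem_iSup_of_mem (by simp) (mem_eigen.2 (by rw [h₁.2.2.1.1.2.1, one_smul]))))
  have mu1 : μ₁ = σ * μ₀ := by rw [hσ, mul_assoc, m0, mul_one]
  have hp : ∀ j, IsMajoranaPair mul B (nu j) (a j) := by
    intro j
    rcases Int.even_or_odd' j with ⟨k, rfl | rfl⟩
    · rw [ae]
      refine transport h₀ (gσ k).1 (gnu _).1 (gnu _).2 ?_
      show σ ^ k * μ₀ = σ ^ (2 * k) * μ₀ * σ ^ k
      rw [mul_assoc, hflip, ← mul_assoc, ← zpow_add]
      congr 2; ring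
    · rw [ao]
      refine transport h₁ (gσ k).1 (gnu _).1 (gnu _).2 ?_
      show σ ^ k * μ₁ = σ ^ (2 * k + 1) * μ₀ * σ ^ k
      rw [mul_assoc, hflip, ← mul_assoc, ← zpow_add, mu1, ← mul_assoc, ← zpow_add_one]
      congr 2; ring
  have hn : ∀ j, B (a j) (a j) = 1 := by
    intro j
    rcases Int.even_or_odd' j with ⟨k, rfl | rfl⟩
    · rw [ae, (gσ k).2, hn₀]
    · rw [ao, (gσ k).2, hn₁]
  have href : ∀ i j, nu i (a j) = a (2 * i - j) := by
    intro i j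
    rcases Int.even_or_odd' j with ⟨k, rfl | rfl⟩
    · rw [ae, show 2 * i - 2 * k = 2 * (i - k) by ring, ae]
      show (σ ^ i * μ₀ * σ ^ k) a₀ = _
      rw [mul_assoc, hflip, ← mul_assoc, ← zpow_add, ← sub_eq_add_neg]
      show (σ ^ (i - k)) (μ₀ a₀) = _
      rw [fix0]
    · rw [ao, show 2 * i - (2 * k + 1) = 2 * (i - k - 1) + 1 by ring, ao]
      show (σ ^ i * μ₀ * σ ^ k) a₁ = _
      rw [mul_assoc, hflip, ← mul_assoc, ← zpow_add, ← sub_eq_add_neg]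
      have h2 : μ₀ = σ⁻¹ * μ₁ := by rw [hinv, mul_assoc, m1, mul_one]
      rw [h2, ← mul_assoc, ← zpow_sub_one]
      show (σ ^ (i - k - 1)) (μ₁ a₁) = _
      rw [fix1]
  obtain ⟨N, hN1, hN6, hN⟩ := period_le_six hV nu a hp hn href
  refine ⟨N, hN1, hN6, ?_⟩
  have e : nu N = nu 0 := unique_map (hp N) (hN.symm ▸ hp 0)
  have e2 : σ ^ (N : ℤ) = 1 := by simpa [nu] using e
  rw [zpow_natCast] at e2
  rw [← hinv, inv_pow, e2, inv_one]

end Cfsg.Agent.Majorana.Sakuma
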