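import Cfsg.Agent.Majorana.SakumaLocal

/-! The resurrection step in Sakuma's theorem: the square of `sig` at one axis. -/

set_option autoImplicit false

namespace Cfsg.Agent.Majorana.Sakuma

open Cfsg.Axial

variable {V : Type*} [AddCommGroup V] [Module ℝ V] {mul : V →ₗ[ℝ] V →ₗ[ℝ] V}
  {B : LinearMap.BilinForm ℝ V}

set_option maxHeartbeats 1600000 in
theorem local_two (hV : IsMajoranaAmbient mul B) {μ : V ≃ₗ[ℝ] V} {a b b' c c' : V} {lam p q : ℝ}
    (h : IsMajoranaPair mul B μ a) (hn : B a a = 1) (hb : μ b = b') (hc : μ c = c')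
    (hlam : B a b = lam) (hp : B a c = p) (hq : B b b' = q)
    (hnb : B b b = 1) (hnb' : B b' b' = 1) (ibb : mul b b = b) (ibb' : mul b' b' = b')
    (hbS : mul b (sig mul a b) = (7 / 32 : ℝ) • sig mul a b + (3 / 4 * lam - 25 / 1024) • b +
      (7 / 2048 : ℝ) • a + (7 / 2048 : ℝ) • c)
    (hbS' : mul b' (sig mul a b) = (7 / 32 : ℝ) • sig mul a b + (3 / 4 * lam - 25 / 1024) • b' +
      (7 / 2048 : ℝ) • a + (7 / 2048 : ℝ) • c') :
    B a (sig mul b b') = (31 * lam - 1) / 32 + (q - lam) / 32 ∧
    mul a (sig mul b b') = (-127 / 3072 + 5 / 3 * lam - 32 / 3 * lam ^ 2 - q / 24) • a +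
      (-19 / 48 + 32 / 3 * lam) • sig mul a b + (-19 / 3072 + lam / 6) • b +
      (-19 / 3072 + lam / 6) • b' + (7 / 96 : ℝ) • sig mul a c + (7 / 6144 : ℝ) • c +
      (7 / 6144 : ℝ) • c' ∧
    mul (sig mul a b) (sig mul a b) =
      (-7 / 98304 - 7 / 384 * lam + 7 / 6 * lam ^ 2 + 7 / 1536 * q) • a +
      (-13 / 1536 - 5 / 12 * lam) • sig mul a b + (-245 / 196608 + 49 / 768 * lam) • b +
      (-245 / 196608 + 49 / 768 * lam) • b' + (-7 / 1536 : ℝ) • sig mul a c +
      (49 / 196608 : ℝ) • c + (49 / 196608 : ℝ) • c' + (7 / 2048 : ℝ) • sig mul b b' := by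
  obtain ⟨hcomm, hsym, -, hass, -⟩ := id hV
  obtain ⟨hb2, hab', hlam', haS⟩ := local_one hV h hn hb hlam
  obtain ⟨hc2, hac', hp', haT⟩ := local_one hV h hn hc hp
  have hab := mul_eq_sig (mul := mul) a b
  have hac := mul_eq_sig (mul := mul) a c
  have hbb' := mul_eq_sig (mul := mul) b b'
  generalize hS : sig mul a b = S at *
  generalize hT0 : sig mul a c = T0 at *
  generalize hT1 : sig mul b b' = T1 at *
  have haa : mul a a = a := h.2.2.1.1.2.1
  have c1 : mul b a = mul a b := hcomm _ _
  have c2 : mul b' a = mul a b' := hcomm _ _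
  have c3 : mul b' b = mul b b' := hcomm _ _
  have c4 : mul S a = mul a S := hcomm _ _
  have c5 : mul S b = mul b S := hcomm _ _
  have c6 : mul S b' = mul b' S := hcomm _ _
  have vT1 : B a T1 = (31 * lam - 1) / 32 + (q - lam) / 32 := by
    rw [← hT1, sig, map_sub, map_sub, map_smul, map_smul, hass a b b', hab, hlam, hlam']
    have e1 : B a S = 31 / 32 * lam - 1 / 32 := by
      rw [← hS, sig, map_sub, map_sub, map_smul, map_smul, hass a a b, haa, hlam, hn]
      simp only [smul_eq_mul]; ring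
    have e2 : B S b' = B a S := by
      have h1 : B (mul a b') b' = B a b' := by rw [← hass, ibb']
      rw [hab'] at h1
      simp only [map_add, map_smul, LinearMap.add_apply, LinearMap.smul_apply, smul_eq_mul, hnb',
        hlam'] at h1
      rw [e1]; linarith
    simp only [map_add, map_smul, LinearMap.add_apply, LinearMap.smul_apply, smul_eq_mul, e2, e1,
      hlam', hq]
    ring
  set u : V := (3 * lam - 1 / 8) • a + (7 / 16 : ℝ) • b + (7 / 16 : ℝ) • b' - (4 : ℝ) • S with hu
  set v : V := (4 : ℝ) • S + (1 / 8 - 4 * lam) • a + (1 / 16 : ℝ) • b + (1 / 16 : ℝ) • b' with hv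
  have au : mul a u = 0 := by
    rw [hu]
    simp only [map_add, map_sub, map_smul, haa, hab, hab', haS]
    module
  have av : mul a v = (1 / 4 : ℝ) • v := by
    rw [hv]
    simp only [map_add, map_sub, map_smul, haa, hab, hab', haS]
    module
  have vn : B v v = -1 / 16 + 4 * lam - 4 * lam ^ 2 + q / 16 := by
    have o1 : B a v = 0 := orth hV haa (by norm_num) av
    have o2 : B v u = 0 := by
      have e := hass v a u
      rw [au, map_zero, hcomm v a, av, map_smul, LinearMap.smul_apply, smul_eq_mul] at e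
      linarith
    have hbs : B b S = 31 / 32 * lam - 1 / 32 := by
      have h1 : B (mul a b) b = B a b := by rw [← hass, ibb]
      rw [hab] at h1
      simp only [map_add, map_smul, LinearMap.add_apply, LinearMap.smul_apply, smul_eq_mul, hnb,
        hlam] at h1
      rw [hsym]; linarith
    have hbs' : B b' S = 31 / 32 * lam - 1 / 32 := by
      have h1 : B (mul a b') b' = B a b' := by rw [← hass, ibb']
      rw [hab'] at h1
      simp only [map_add, map_smul, LinearMap.add_apply, LinearMap.smul_apply, smul_eq_mul, hnb',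
        hlam'] at h1
      rw [hsym]; linarith
    have hsplit : v = (1 / 2 : ℝ) • b + (1 / 2 : ℝ) • b' - lam • a - u := by
      rw [hv, hu]; module
    have e3 : B v v = (1 / 2) * B b v + (1 / 2) * B b' v := by
      calc B v v = B v ((1 / 2 : ℝ) • b + (1 / 2 : ℝ) • b' - lam • a - u) := by rw [← hsplit]
        _ = _ := by
          simp only [map_add, map_sub, map_smul, smul_eq_mul, o2, hsym v a, o1, hsym v b, hsym v b']
          ring
    rw [e3, hv]
    simp only [map_add, map_smul, smul_eq_mul, hbs, hbs', hnb, hnb', hsym b a, hsym b' a, hsym b' b,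
      hlam, hlam', hq]
    ring
  have E1 : mul a (mul u u) = 0 := zero_mul_zero h au au
  have E2 := quarter_sq hV h hn av
  have E3 : mul a (mul u v) = (1 / 4 : ℝ) • mul u v := zero_quarter_mul h au av
  rw [vn] at E2
  simp only [hu, hv, map_add, map_sub, map_smul, LinearMap.add_apply, LinearMap.sub_apply,
    LinearMap.smul_apply, c1, c2, c3, c4, c5, c6, haa, ibb, ibb', hab, hab', hbb', hbS, hbS', hac,
    hac', haS, haT, smul_add, smul_sub] at E1 E2 E3
  have A1 : mul a T1 = (-127 / 3072 + 5 / 3 * lam - 32 / 3 * lam ^ 2 - q / 24) • a +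
      (-19 / 48 + 32 / 3 * lam) • S + (-19 / 3072 + lam / 6) • b +
      (-19 / 3072 + lam / 6) • b' + (7 / 96 : ℝ) • T0 + (7 / 6144 : ℝ) • c +
      (7 / 6144 : ℝ) • c' := by
    linear_combination (norm := module) (8 / 3 : ℝ) • E1 - (8 / 3 : ℝ) • E2
  refine ⟨vT1, A1, ?_⟩
  rw [A1] at E1 E3
  linear_combination (norm := module) (1 / 4 : ℝ) • E1 + (1 / 4 : ℝ) • E3

end Cfsg.Agent.Majorana.Sakuma
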